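import Cfsg.Agent.H646.ProjLat
import Cfsg.Agent.Characters.SplittingField
import Cfsg.Agent.Blocks.BlockPart
import Cfsg.Agent.S0166

/-! S4577, parity lemma, part (R): realizability over `K` of an irreducible character with
values in `K` which occurs with coefficient `1` in a generalized character vanishing on the
`p`-singular elements; `K` contains the roots of unity of order prime to `p`. -/

set_option autoImplicit false

open scoped ComplexConjugate
open Cfsg Representation Module

namespace Cfsg.Agent.H298.KS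

open Cfsg.Agent.Characters.Core Cfsg.Agent.Characters.SplittingField

universe u v

section proj

variable {K : Type v} [Field K] [Algebra K ℂ] {G : Type u} [Group G]

/-- The block part of the character of a representation over `K`, through the operator of the
idempotent. -/
theorem blockPart_eq_trace [Fintype G] (B : Set (IrrCharacter G)) {e : G → K}
    (he : ∀ g, algebraMap K ℂ (e g) = blockCoeff B g) {V : Type*} [AddCommGroup V] [Module K V]
    [FiniteDimensional K V] (σ : Representation K G V) (y : G) :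
    blockPart B (fun g => algebraMap K ℂ (σ.character g)) y =
      algebraMap K ℂ (LinearMap.trace K V ((∑ g : G, e g • σ g) * σ y)) := by
  have hcl : IsClassFunction G (fun g => algebraMap K ℂ (σ.character g)) := by
    obtain ⟨n, ρ, hρ⟩ := isCharOver_of_rep (K := K) σ (χ := fun g => algebraMap K ℂ (σ.character g))
      fun g => rfl
    exact isCharacter_isClassFunction (IsCharOver.isCharacter ⟨n, ρ, hρ⟩)
  rw [Cfsg.Agent.Blocks.BlockPart.blockPart_eq_sum B hcl y, Finset.sum_mul, map_sum, map_sum]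
  refine Finset.sum_congr rfl fun k _ => ?_
  rw [smul_mul_assoc, map_smul, smul_eq_mul, map_mul, he, ← map_mul σ]
  rfl

/-- The `B`-part of a character over `K` is a character over `K`, if the idempotent of `B` has
coefficients in `K`. -/
theorem isCharOver_blockPart [Fintype G] (B : Set (IrrCharacter G))
    (hB : ∀ g, blockCoeff B g ∈ Set.range (algebraMap K ℂ)) {ψ : G → ℂ}
    (hψ : IsCharOver K G ψ) : IsCharOver K G (blockPart B ψ) := by
  classical
  have hinj : Function.Injective (algebraMap K ℂ) := (algebraMap K ℂ).injective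
  choose e he using hB
  obtain ⟨n, ρ, hρ⟩ := hψ
  have hecl : ∀ x g : G, e (x * g * x⁻¹) = e g := by
    intro x g
    apply hinj
    rw [he, he]
    exact Cfsg.Agent.Blocks.Basic.blockCoeff_isConj B (isConj_iff.2 ⟨x⁻¹, by group⟩)
  have hconv : ∀ g : G, ∑ x, e x * e (x⁻¹ * g) = e g := by
    intro g
    apply hinj
    rw [map_sum, he, ← Cfsg.Agent.Blocks.Orthogonality.conv_blockCoeff B g]
    refine Finset.sum_congr rfl fun x _ => ?_
    rw [map_mul, he, he]
  set E : (Fin n → K) →ₗ[K] (Fin n → K) := ∑ g : G, e g • ρ g with hE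
  have hEapp : ∀ v, E v = ∑ g : G, e g • ρ g v := by
    intro v
    rw [hE, LinearMap.sum_apply]
    rfl
  have hcomm : ∀ (h : G) (v : Fin n → K), E (ρ h v) = ρ h (E v) := by
    intro h v
    rw [hEapp, hEapp, map_sum]
    refine Fintype.sum_equiv (MulAut.conj h⁻¹).toEquiv _ _ fun g => ?_
    have h1 : (MulAut.conj h⁻¹).toEquiv g = h⁻¹ * g * h := by simp
    rw [h1, map_smul]
    have h2 : e (h⁻¹ * g * h) = e g := by
      have := hecl h⁻¹ g
      rwa [inv_inv] at this
    rw [h2, ← Module.End.mul_apply, ← Module.End.mul_apply, ← map_mul, ← map_mul]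
    congr 3
    group
  have hidem : ∀ v, E (E v) = E v := by
    intro v
    rw [hEapp (E v), hEapp v]
    have h1 : ∀ g : G, e g • ρ g (∑ h : G, e h • ρ h v) =
        ∑ x : G, (e g * e (g⁻¹ * x)) • ρ x v := by
      intro g
      rw [map_sum, Finset.smul_sum]
      refine Fintype.sum_equiv (Equiv.mulLeft g) _ _ fun h => ?_
      simp only [Equiv.coe_mulLeft]
      rw [map_smul, smul_smul, inv_mul_cancel_left, map_mul]
      rfl
    rw [Finset.sum_congr rfl fun g _ => h1 g, Finset.sum_comm]
    refine Finset.sum_congr rfl fun x _ => ?_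
    rw [← Finset.sum_smul, hconv]
  let W1 : Subrepresentation ρ :=
    ⟨LinearMap.range E, by
      rintro g _ ⟨v, rfl⟩
      exact ⟨ρ g v, hcomm g v⟩⟩
  let W2 : Subrepresentation ρ :=
    ⟨LinearMap.ker E, by
      intro g v hv
      rw [LinearMap.mem_ker] at hv ⊢
      rw [hcomm, hv, map_zero]⟩
  have hc' : IsCompl W1.toSubmodule W2.toSubmodule := by
    constructor
    · rw [Submodule.disjoint_def]
      rintro _ ⟨v, rfl⟩ h2
      have h3 : E (E v) = 0 := h2
      rwa [hidem] at h3
    · rw [codisjoint_iff, eq_top_iff]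
      intro v _
      rw [Submodule.mem_sup]
      refine ⟨E v, ⟨v, rfl⟩, v - E v, ?_, by abel⟩
      change v - E v ∈ LinearMap.ker E
      rw [LinearMap.mem_ker, map_sub, hidem, sub_self]
  have hc : IsCompl W1 W2 := by
    constructor
    · rw [disjoint_iff]
      exact Subrepresentation.toSubmodule_injective (disjoint_iff.1 hc'.disjoint)
    · rw [codisjoint_iff]
      exact Subrepresentation.toSubmodule_injective (codisjoint_iff.1 hc'.codisjoint)
  have hS1 : ∑ g : G, e g • W1.toRepresentation g = 1 := by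
    refine LinearMap.ext fun v => ?_
    obtain ⟨v, hv⟩ := v
    apply Subtype.ext
    have h3 : (((∑ g : G, e g • W1.toRepresentation g) ⟨v, hv⟩ : W1.toSubmodule) :
        Fin n → K) = E v := by
      rw [hEapp, LinearMap.sum_apply, Submodule.coe_sum]
      rfl
    rw [h3]
    obtain ⟨w, rfl⟩ := hv
    exact hidem w
  have hS2 : ∑ g : G, e g • W2.toRepresentation g = 0 := by
    refine LinearMap.ext fun v => ?_
    obtain ⟨v, hv⟩ := v
    apply Subtype.ext
    have h3 : (((∑ g : G, e g • W2.toRepresentation g) ⟨v, hv⟩ : W2.toSubmodule) :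
        Fin n → K) = E v := by
      rw [hEapp, LinearMap.sum_apply, Submodule.coe_sum]
      rfl
    rw [h3]
    exact hv
  have h1 : blockPart B (fun g => algebraMap K ℂ (W1.toRepresentation.character g)) =
      fun g => algebraMap K ℂ (W1.toRepresentation.character g) := by
    funext y
    rw [blockPart_eq_trace B he, hS1, one_mul]
    rfl
  have h2 : blockPart B (fun g => algebraMap K ℂ (W2.toRepresentation.character g)) = 0 := by
    funext y
    rw [blockPart_eq_trace B he, hS2, zero_mul, map_zero, map_zero]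
    rfl
  have hcl1 : IsCharOver K G (fun g => algebraMap K ℂ (W1.toRepresentation.character g)) :=
    isCharOver_of_rep W1.toRepresentation fun g => rfl
  have hcl2 : IsCharOver K G (fun g => algebraMap K ℂ (W2.toRepresentation.character g)) :=
    isCharOver_of_rep W2.toRepresentation fun g => rfl
  have h3 : ψ = (fun g => algebraMap K ℂ (W1.toRepresentation.character g)) +
      fun g => algebraMap K ℂ (W2.toRepresentation.character g) := by
    funext g
    rw [hρ, character_add_of_isCompl ρ hc, map_add]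
    rfl
  have h4 : blockPart B ψ = fun g => algebraMap K ℂ (W1.toRepresentation.character g) := by
    rw [h3]
    funext y
    have hc1 := isCharacter_isClassFunction hcl1.isCharacter
    have hc2 := isCharacter_isClassFunction hcl2.isCharacter
    have hc3 : IsClassFunction G ((fun g => algebraMap K ℂ (W1.toRepresentation.character g)) +
      fun g => algebraMap K ℂ (W2.toRepresentation.character g)) :=
      isCharacter_isClassFunction (isCharacter_add hcl1.isCharacter hcl2.isCharacter)
    have e1 := congrFun h1 y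
    have e2 := congrFun h2 y
    rw [Cfsg.Agent.Blocks.BlockPart.blockPart_eq_sum B hc1 y] at e1
    rw [Cfsg.Agent.Blocks.BlockPart.blockPart_eq_sum B hc2 y] at e2
    rw [Cfsg.Agent.Blocks.BlockPart.blockPart_eq_sum B hc3 y]
    simp only [Pi.add_apply, mul_add, Finset.sum_add_distrib]
    rw [e1, e2]
    simp
  rw [h4]
  exact hcl1

/-- The `χ`-part of a character over `K` is a character over `K`, if `χ` has values in `K`. -/
theorem isCharOver_inner [Fintype G] (χ : IrrCharacter G)
    (hχ : ∀ g, (χ : G → ℂ) g ∈ Set.range (algebraMap K ℂ)) {ψ : G → ℂ}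
    (hψ : IsCharOver K G ψ) : IsCharOver K G (classInner ψ (χ : G → ℂ) • (χ : G → ℂ)) := by
  classical
  have h1 : blockPart {χ} ψ = classInner ψ (χ : G → ℂ) • (χ : G → ℂ) := by
    funext y
    unfold blockPart
    rw [finsum_mem_singleton]
    change _ = classInner ψ (χ : G → ℂ) * (χ : G → ℂ) y
    congr 1
    convert rfl
  rw [← h1]
  refine isCharOver_blockPart {χ} ?_ hψ
  intro g
  rw [Cfsg.Agent.Blocks.Basic.blockCoeff_def, finsum_mem_singleton]
  obtain ⟨a, ha⟩ := hχ 1
  obtain ⟨b, hb⟩ := hχ g⁻¹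
  have h2 : conj ((χ : G → ℂ) g) = (χ : G → ℂ) g⁻¹ :=
    (isCharacter_apply_inv (isIrr_isCharacter χ.2) g).symm
  refine ⟨(Nat.card G : K)⁻¹ * (a * b), ?_⟩
  rw [h2, map_mul, map_mul, map_inv₀, map_natCast, ha, hb]

/-- Differences of characters over `K`. -/
def diffOver (K : Type v) [Field K] [Algebra K ℂ] (G : Type u) [Group G] :
    AddSubgroup (G → ℂ) where
  carrier := {f | ∃ α β : G → ℂ, IsCharOver K G α ∧ IsCharOver K G β ∧ f = α - β}
  zero_mem' := ⟨0, 0, isCharOver_zero, isCharOver_zero, (sub_zero _).symm⟩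
  add_mem' := by
    rintro _ _ ⟨a, b, ha, hb, rfl⟩ ⟨c, d, hc, hd, rfl⟩
    exact ⟨a + c, b + d, isCharOver_add ha hc, isCharOver_add hb hd, by abel⟩
  neg_mem' := by
    rintro _ ⟨a, b, ha, hb, rfl⟩
    exact ⟨b, a, hb, ha, by abel⟩

/-- **(R)**, closure form. -/
theorem inner_smul_mem [Fintype G] {p m : ℕ} [Fact p.Prime]
    (hm : ∀ d, d ∣ Nat.card G → ¬ p ∣ d → d ∣ m)
    (hK : ∀ z : ℂ, z ^ m = 1 → z ∈ Set.range (algebraMap K ℂ)) (χ : IrrCharacter G)
    (hχ : ∀ g, (χ : G → ℂ) g ∈ Set.range (algebraMap K ℂ)) {θ : G → ℂ}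
    (hθ : IsGeneralizedCharacter G θ) (h0 : ∀ g, ¬ IsPRegular p g → θ g = 0) :
    classInner θ (χ : G → ℂ) • (χ : G → ℂ) ∈ diffOver K G := by
  have h1 := Cfsg.Agent.H646.ProjLat.mem_closure_of_vanish p hθ h0
  clear hθ h0
  induction h1 using AddSubgroup.closure_induction with
  | mem x hx =>
    obtain ⟨H, lam, hH, rfl⟩ := hx
    have hval : ∀ e : H, ∃ k : K, algebraMap K ℂ k = (lam e : ℂ) := by
      intro e
      apply hK
      rw [← Units.val_pow_eq_pow_val, ← map_pow]
      have : e ^ m = 1 := by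
        obtain ⟨c, hc⟩ := hm _ (Subgroup.card_subgroup_dvd_card H) hH
        rw [hc, pow_mul, pow_card_eq_one', one_pow]
      rw [this, map_one, Units.val_one]
    choose k hk using hval
    have hinj : Function.Injective (algebraMap K ℂ) := (algebraMap K ℂ).injective
    let μ : H →* K :=
      { toFun := k
        map_one' := hinj (by rw [hk, map_one, map_one, Units.val_one])
        map_mul' := fun a b => hinj (by rw [hk, map_mul, map_mul, hk, hk, Units.val_mul]) }
    have hind : IsCharOver K G (Cfsg.indFun H (fun e => (lam e : ℂ))) := by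
      have h1 := isCharOver_indFun H μ
      have h2 : (fun e => algebraMap K ℂ (μ e)) = fun e : H => (lam e : ℂ) :=
        funext fun e => hk e
      rwa [h2] at h1
    exact ⟨_, 0, isCharOver_inner χ hχ hind, isCharOver_zero, (sub_zero _).symm⟩
  | zero =>
    rw [classInner_zero_left, zero_smul]
    exact AddSubgroup.zero_mem _
  | add x y hx hy h1 h2 =>
    rw [classInner_add_left, add_smul]
    exact AddSubgroup.add_mem _ h1 h2
  | neg x hx h1 =>
    rw [classInner_neg_left, neg_smul]
    exact AddSubgroup.neg_mem _ h1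

/-- **(R)**: `χ` is realized over `K`. -/
theorem isCharOver_of_inner_one [Fintype G] {p m : ℕ} [Fact p.Prime]
    (hm : ∀ d, d ∣ Nat.card G → ¬ p ∣ d → d ∣ m)
    (hK : ∀ z : ℂ, z ^ m = 1 → z ∈ Set.range (algebraMap K ℂ)) (χ : IrrCharacter G)
    (hχ : ∀ g, (χ : G → ℂ) g ∈ Set.range (algebraMap K ℂ)) {θ : G → ℂ}
    (hθ : IsGeneralizedCharacter G θ) (h0 : ∀ g, ¬ IsPRegular p g → θ g = 0)
    (h1 : classInner θ (χ : G → ℂ) = 1) : IsCharOver K G (χ : G → ℂ) := by
  obtain ⟨α, β, hα, hβ, he⟩ := inner_smul_mem hm hK χ hχ hθ h0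
  rw [h1, one_smul] at he
  exact isCharOver_of_sub (isIrr_isCharacter χ.2) hα hβ he

/-- **(R)** with two generalized characters of coprime multiplicities. -/
theorem isCharOver_of_inner_coprime [Fintype G] {p m : ℕ} [Fact p.Prime]
    (hm : ∀ d, d ∣ Nat.card G → ¬ p ∣ d → d ∣ m)
    (hK : ∀ z : ℂ, z ^ m = 1 → z ∈ Set.range (algebraMap K ℂ)) (χ : IrrCharacter G)
    (hχ : ∀ g, (χ : G → ℂ) g ∈ Set.range (algebraMap K ℂ)) {θ η : G → ℂ}
    (hθ : IsGeneralizedCharacter G θ) (h0 : ∀ g, ¬ IsPRegular p g → θ g = 0)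
    (hη : IsGeneralizedCharacter G η) (h0' : ∀ g, ¬ IsPRegular p g → η g = 0) {a b : ℤ}
    (ha : classInner θ (χ : G → ℂ) = a) (hb : classInner η (χ : G → ℂ) = b)
    (hab : IsCoprime a b) : IsCharOver K G (χ : G → ℂ) := by
  obtain ⟨u, v, huv⟩ := hab
  have h1 := AddSubgroup.zsmul_mem _ (inner_smul_mem hm hK χ hχ hθ h0) u
  have h2 := AddSubgroup.zsmul_mem _ (inner_smul_mem hm hK χ hχ hη h0') v
  obtain ⟨α, β, hα, hβ, he⟩ := AddSubgroup.add_mem _ h1 h2
  have h3 : u • classInner θ (χ : G → ℂ) • (χ : G → ℂ) +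
      v • classInner η (χ : G → ℂ) • (χ : G → ℂ) = (χ : G → ℂ) := by
    rw [ha, hb]
    have h4 : (u : ℂ) * a + (v : ℂ) * b = 1 := by exact_mod_cast huv
    rw [← Int.cast_smul_eq_zsmul ℂ u, ← Int.cast_smul_eq_zsmul ℂ v, smul_smul, smul_smul,
      ← add_smul, h4, one_smul]
  rw [h3] at he
  exact isCharOver_of_sub (isIrr_isCharacter χ.2) hα hβ he

/-- **(R)** for a coefficient vector `x` with `x χ = ± 1`. -/
theorem isCharOver_of_coeff [Fintype G] [Fintype (IrrCharacter G)] {p m : ℕ} [Fact p.Prime]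
    (hm : ∀ d, d ∣ Nat.card G → ¬ p ∣ d → d ∣ m)
    (hK : ∀ z : ℂ, z ^ m = 1 → z ∈ Set.range (algebraMap K ℂ)) (χ : IrrCharacter G)
    (hχ : ∀ g, (χ : G → ℂ) g ∈ Set.range (algebraMap K ℂ)) {x : IrrCharacter G → ℤ}
    (h0 : ∀ g, p ∣ orderOf g → ∑ ψ : IrrCharacter G, x ψ • (ψ : G → ℂ) g = 0)
    (h1 : x χ = 1 ∨ x χ = -1) : IsCharOver K G (χ : G → ℂ) := by
  have key : ∀ y : IrrCharacter G → ℤ,
      (∀ g, p ∣ orderOf g → ∑ ψ : IrrCharacter G, y ψ • (ψ : G → ℂ) g = 0) → y χ = 1 →
      IsCharOver K G (χ : G → ℂ) := by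
    intro y hy hy1
    have hgen : IsGeneralizedCharacter G (∑ ψ : IrrCharacter G, y ψ • (ψ : G → ℂ)) :=
      isGeneralizedCharacter_iff.2 ⟨y, rfl⟩
    refine isCharOver_of_inner_one (p := p) hm hK χ hχ hgen ?_ ?_
    · intro g hg
      have h2 : p ∣ orderOf g := not_not.1 hg
      rw [Finset.sum_apply]
      exact hy g h2
    · rw [classInner_sum_zsmul_irr, hy1, Int.cast_one]
  rcases h1 with h1 | h1
  · exact key x h0 h1
  · refine key (fun ψ => -x ψ) (fun g hg => ?_) (by simp [h1])
    have := h0 g hg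
    simp only [neg_smul, Finset.sum_neg_distrib, this, neg_zero]

end proj

end Cfsg.Agent.H298.KS
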